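import Mathlib
import Cfsg.Agent.Lib.Helper37.OrtStmt

set_option autoImplicit false

/-! Piece [SINGERC] of S5981: for `i = orderOf (q : ZMod r)` even, an element of `GL_i(F)` of
order the full `r`-part of `q ^ i - 1` preserving a non-degenerate symmetric form.

Construction: `L` the extension of degree `i = 2h` of `F`, `c ∈ Lˣ` of order `r ^ a`,
`σ = Frob ^ h`, form `(x, y) ↦ Tr (x * σ y)`; `c * σ c = c ^ (q ^ h + 1) = 1`. -/

namespace Cfsg.Agent.Lib.Helper38.OrtSINGERC

open scoped Kronecker MatrixGroups Matrix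
open Cfsg.Agent.Lib.Helper37.OrtStmt

universe u

/-- arithmetic: the `r`-part of `q ^ (2h) - 1` divides `q ^ h + 1`. -/
theorem arith (q r h : ℕ) [Fact r.Prime] (hq : 1 ≤ q) (hh : 1 ≤ h)
    (hord : orderOf ((q : ℕ) : ZMod r) = 2 * h) :
    r ^ padicValNat r (q ^ (2 * h) - 1) ∣ q ^ h + 1 := by
  have hr : r.Prime := Fact.out
  have hqh : 1 ≤ q ^ h := Nat.one_le_pow _ _ hq
  have hnd : ¬ r ∣ q ^ h - 1 := by
    intro hd
    have h1 : ((q ^ h - 1 : ℕ) : ZMod r) = 0 := (ZMod.natCast_eq_zero_iff _ _).mpr hd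
    rw [Nat.cast_sub hqh, Nat.cast_pow, Nat.cast_one, sub_eq_zero] at h1
    have h2 := orderOf_dvd_of_pow_eq_one h1
    rw [hord] at h2
    have h3 := Nat.le_of_dvd (by omega) h2
    omega
  have hfac : q ^ (2 * h) - 1 = (q ^ h + 1) * (q ^ h - 1) := by
    have h4 : q ^ (2 * h) = q ^ h * q ^ h := by rw [two_mul, pow_add]
    rw [h4]
    obtain ⟨t, ht⟩ : ∃ t, q ^ h = t + 1 := ⟨q ^ h - 1, by omega⟩
    rw [ht]
    simp only [Nat.add_sub_cancel]
    have : (t + 1) * (t + 1) - 1 = (t + 1 + 1) * t := by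
      have h5 : (t + 1) * (t + 1) = (t + 1 + 1) * t + 1 := by ring
      omega
    exact this
  have hdvd : r ^ padicValNat r (q ^ (2 * h) - 1) ∣ (q ^ h + 1) * (q ^ h - 1) := by
    rw [← hfac]
    exact pow_padicValNat_dvd
  have hcop : Nat.Coprime (r ^ padicValNat r (q ^ (2 * h) - 1)) (q ^ h - 1) :=
    Nat.Coprime.pow_left _ ((Nat.Prime.coprime_iff_not_dvd hr).mpr hnd)
  exact hcop.dvd_of_dvd_mul_right hdvd

/-- the construction for an abstract extension `L / F` with an involution `σ`. -/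
theorem singer_of_ext (F : Type u) [Field F] [Fintype F] (L : Type) [Field L] [Algebra F L]
    [Finite L] (σ : L ≃ₐ[F] L) (n : ℕ) (hfr : Module.finrank F L = n)
    (hσσ : ∀ x : L, σ (σ x) = x) (c0 : Lˣ) (hcσ : (c0 : L) * σ (c0 : L) = 1) :
    ∃ (c : GL (Fin n) F) (N : Matrix (Fin n) (Fin n) F),
      orderOf c = orderOf c0 ∧ Nᵀ = N ∧ N.det ≠ 0 ∧
      (c : Matrix (Fin n) (Fin n) F)ᵀ * N * (c : Matrix (Fin n) (Fin n) F) = N := by
  classical
  haveI : Module.Finite F L := Module.Finite.of_finite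
  let B : LinearMap.BilinForm F L := (Algebra.traceForm F L).compRight σ.toLinearMap
  have hB : ∀ x y : L, B x y = Algebra.trace F L (x * σ y) := fun x y => rfl
  have hBsymm : ∀ x y : L, B x y = B y x := by
    intro x y
    rw [hB, hB, ← Algebra.trace_eq_of_algEquiv σ (x * σ y), map_mul σ, hσσ, mul_comm (σ x) y]
  have hBinv : ∀ x y : L, B ((c0 : L) * x) ((c0 : L) * y) = B x y := by
    intro x y
    rw [hB, hB, map_mul σ]
    have h1 : (c0 : L) * x * (σ (c0 : L) * σ y) = ((c0 : L) * σ (c0 : L)) * (x * σ y) := by ring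
    rw [h1, hcσ, one_mul]
  have hBnd : B.Nondegenerate := by
    have hT := traceForm_nondegenerate F L
    refine ⟨?_, ?_⟩
    · intro x hx
      apply hT.1 x
      intro y
      have h1 := hx (σ.symm y)
      rw [hB, AlgEquiv.apply_symm_apply] at h1
      exact h1
    · intro y hy
      have h1 : σ y = 0 := hT.2 (σ y) (fun x => hy x)
      exact (EmbeddingLike.map_eq_zero_iff (f := σ)).mp h1
  let b : Module.Basis (Fin n) F L := Module.finBasisOfFinrankEq F L hfr
  let φ : L →* Matrix (Fin n) (Fin n) F :=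
    (Algebra.leftMulMatrix b : L →ₐ[F] Matrix (Fin n) (Fin n) F)
  have hφinj : Function.Injective φ := Algebra.leftMulMatrix_injective b
  refine ⟨Units.map φ c0, LinearMap.BilinForm.toMatrix b B, ?_, ?_, ?_, ?_⟩
  · rw [orderOf_injective (Units.map φ) (Units.map_injective hφinj) c0]
  · ext j k
    rw [Matrix.transpose_apply, LinearMap.BilinForm.toMatrix_apply,
      LinearMap.BilinForm.toMatrix_apply, hBsymm]
  · exact (LinearMap.BilinForm.nondegenerate_iff_det_ne_zero b).mp hBnd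
  · have h1 : ((Units.map φ c0 : GL (Fin n) F) : Matrix (Fin n) (Fin n) F) =
        LinearMap.toMatrix b b (Algebra.lmul F L (c0 : L)) := rfl
    rw [h1, ← LinearMap.BilinForm.toMatrix_comp b b]
    congr 1
    apply LinearMap.ext₂
    intro x y
    simp [hBinv]

theorem singer_general (F : Type u) [Field F] [Fintype F] (p : ℕ) [Fact p.Prime] [CharP F p]
    (r : ℕ) [Fact r.Prime] (i h : ℕ) (hh : 1 ≤ h) (hi : i = 2 * h)
    (hord : orderOf ((Fintype.card F : ℕ) : ZMod r) = i) :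
    ∃ (c : GL (Fin i) F) (N : Matrix (Fin i) (Fin i) F),
      orderOf c = r ^ padicValNat r (Fintype.card F ^ i - 1) ∧ Nᵀ = N ∧ N.det ≠ 0 ∧
      (c : Matrix (Fin i) (Fin i) F)ᵀ * N * (c : Matrix (Fin i) (Fin i) F) = N := by
  classical
  subst hi
  have hr : r.Prime := Fact.out
  set q := Fintype.card F with hq
  have hq1 : 1 ≤ q := Fintype.card_pos
  set a := padicValNat r (q ^ (2 * h) - 1) with ha
  have hdiv := arith q r h hq1 hh hord
  haveI : NeZero (2 * h) := ⟨by omega⟩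
  let L := FiniteField.Extension F p (2 * h)
  have hcardL : Nat.card L = q ^ (2 * h) := by
    rw [FiniteField.natCard_extension, Nat.card_eq_fintype_card]
  have hfr : Module.finrank F L = 2 * h := FiniteField.finrank_extension F p (2 * h)
  haveI : Fintype L := Fintype.ofFinite L
  have hcardU : Nat.card Lˣ = q ^ (2 * h) - 1 := by
    rw [Nat.card_units, hcardL]
  obtain ⟨g, hg⟩ := IsCyclic.exists_ofOrder_eq_natCard (α := Lˣ)
  rw [hcardU] at hg
  have hpos : q ^ (2 * h) - 1 ≠ 0 := by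
    have hq2 : 2 ≤ q := Fintype.one_lt_card
    have h1 : 2 ^ (2 * h) ≤ q ^ (2 * h) := Nat.pow_le_pow_left hq2 _
    have h2 : 2 ≤ 2 ^ (2 * h) := by
      calc 2 = 2 ^ 1 := by norm_num
        _ ≤ 2 ^ (2 * h) := Nat.pow_le_pow_right (by norm_num) (by omega)
    omega
  have hra : r ^ a ∣ q ^ (2 * h) - 1 := pow_padicValNat_dvd
  obtain ⟨c0, hc0⟩ : ∃ c0 : Lˣ, orderOf c0 = r ^ a := by
    refine ⟨g ^ (orderOf g / r ^ a), ?_⟩
    exact orderOf_pow_orderOf_div (by rw [hg]; exact hpos) (by rw [hg]; exact hra)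
  have hc0pow : c0 ^ (q ^ h + 1) = 1 := by
    apply orderOf_dvd_iff_pow_eq_one.mp
    rw [hc0]; exact hdiv
  let σ : L ≃ₐ[F] L := (FiniteField.Extension.frob F p (2 * h)) ^ h
  have hσ : ∀ x : L, σ x = x ^ (q ^ h) := by
    intro x
    have h1 := FiniteField.Extension.frob_iterate_apply F p (2 * h) h (x := x)
    rw [Nat.card_eq_fintype_card] at h1
    exact h1
  have hσσ : ∀ x : L, σ (σ x) = x := by
    intro x
    rw [hσ, hσ, ← pow_mul, ← pow_add, ← two_mul, ← hcardL, Nat.card_eq_fintype_card,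
      FiniteField.pow_card]
  have hcσ : (c0 : L) * σ (c0 : L) = 1 := by
    rw [hσ, ← pow_succ']
    have h1 := congrArg (fun u : Lˣ => (u : L)) hc0pow
    simpa using h1
  obtain ⟨c, N, h1, h2, h3, h4⟩ := singer_of_ext F L σ (2 * h) hfr hσσ c0 hcσ
  exact ⟨c, N, by rw [h1, hc0], h2, h3, h4⟩

theorem main : SingerC.{u} := by
  intro F _ _ p _ _ r _ _ _ _ hi2 hieven
  obtain ⟨h, hh⟩ := hieven
  exact singer_general F p r _ h (by omega) (by omega) rfl

end Cfsg.Agent.Lib.Helper38.OrtSINGERC
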