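import Mathlib
import Cfsg.Agent.Lib.Helper37.HypStmt
import Cfsg.Agent.Lib.Helper44.SpinCount
import Cfsg.Agent.Lib.Helper44.NegPairs

set_option autoImplicit false

namespace Cfsg.Agent.Lib.Helper38.HypHYPCNT

open Module QuadraticMap
open Cfsg.Agent.Lib.Helper44.Split Cfsg.Agent.Lib.Helper44.QSpace
open Cfsg.Agent.Lib.Helper44.QClass Cfsg.Agent.Lib.Helper44.QBasis
open Cfsg.Agent.Lib.Helper44.SpinCount

universe u

section abstract

variable {F : Type*} [Field F] {V : Type u} [AddCommGroup V] [Module F V]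

/-- ordered hyperbolic systems of `h` pairs -/
def HS (Q : QuadraticForm F V) (h : ℕ) : Type u :=
  {ef : (Fin h → V) × (Fin h → V) // IsHyp Q ef.1 ef.2}

/-- hyperbolic pairs -/
def HP (Q : QuadraticForm F V) : Type u :=
  {ef : V × V // Q ef.1 = 0 ∧ Q ef.2 = 0 ∧ polar Q ef.1 ef.2 = 1}

/-- number of singular vectors of an odd-dimensional nondegenerate space -/
theorem card_sing [Fintype F] [FiniteDimensional F V] (Q : QuadraticForm F V) (k : ℕ)
    (hV : finrank F V = 2 * k + 1) (hS : Sep Q) :
    Nat.card {v : V // Q v = 0} = Fintype.card F ^ (2 * k) := by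
  classical
  obtain ⟨e, f, x, hH, hx, hxe, hxf⟩ := exists_hyp_odd k V Q hV hS
  have hx0 : x ≠ 0 := by
    rintro rfl
    simp at hx
  have hr : LinearIndependent F (fun _ : Unit => x) := by
    rw [Fintype.linearIndependent_iff]
    intro g hg i
    simp only [Finset.univ_unique, Finset.sum_singleton] at hg
    rcases smul_eq_zero.mp hg with h | h
    · exact h
    · exact absurd h hx0
  have her : ∀ i (_ : Unit), polar Q (e i) x = 0 := fun i _ => by rw [polar_comm]; exact hxe i
  have hfr : ∀ i (_ : Unit), polar Q (f i) x = 0 := fun i _ => by rw [polar_comm]; exact hxf i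
  obtain ⟨b, hb⟩ := exists_hyp_basis hH (fun _ : Unit => x) hr her hfr (by simp; omega)
  have h := card_level_mul hH (fun _ : Unit => x) her hfr b hb 0
  have hres : Nat.card {w : Unit → F // Q (∑ t, w t • (fun _ : Unit => x) t) = 0} = 1 := by
    rw [Nat.card_eq_one_iff_unique]
    refine ⟨⟨?_⟩, ⟨⟨0, by simp⟩⟩⟩
    rintro ⟨w, hw⟩ ⟨w', hw'⟩
    simp only [Finset.univ_unique, Finset.sum_singleton, q_smul] at hw hw'
    have h1 : w default = 0 := by
      rcases mul_eq_zero.mp hw with h | h
      · exact mul_self_eq_zero.mp h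
      · exact absurd h hx
    have h2 : w' default = 0 := by
      rcases mul_eq_zero.mp hw' with h | h
      · exact mul_self_eq_zero.mp h
      · exact absurd h hx
    apply Subtype.ext
    funext t
    show w t = w' t
    rw [Subsingleton.elim t default, h1, h2]
  rw [hres, Fintype.card_unit, pow_one, one_mul] at h
  have hq : 0 < Fintype.card F := Fintype.card_pos
  have hqk : 1 ≤ Fintype.card F ^ k := Nat.one_le_pow _ _ hq
  apply Nat.eq_of_mul_eq_mul_right hq
  rw [h]
  obtain ⟨m, hm⟩ : ∃ m, Fintype.card F ^ k = m + 1 := ⟨Fintype.card F ^ k - 1, by omega⟩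
  rw [pow_succ, two_mul, pow_add, hm]
  simp only [Nat.add_sub_cancel]
  ring

theorem card_sing_ne [Fintype F] [FiniteDimensional F V] (Q : QuadraticForm F V) (k : ℕ)
    (hV : finrank F V = 2 * k + 1) (hS : Sep Q) :
    Nat.card {v : V // Q v = 0 ∧ v ≠ 0} + 1 = Fintype.card F ^ (2 * k) := by
  classical
  have : Finite V := Module.finite_of_finite F
  rw [← card_sing Q k hV hS]
  have e := Nat.card_congr (Equiv.sumCompl (fun x : {v : V // Q v = 0} => (x : V) = 0))
  rw [Nat.card_sum] at e
  rw [← e]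
  have h1 : Nat.card {x : {v : V // Q v = 0} // (x : V) = 0} = 1 := by
    rw [Nat.card_eq_one_iff_unique]
    refine ⟨⟨?_⟩, ⟨⟨⟨0, QuadraticMap.map_zero Q⟩, rfl⟩⟩⟩
    rintro ⟨⟨a, ha⟩, ha'⟩ ⟨⟨b, hb⟩, hb'⟩
    apply Subtype.ext
    apply Subtype.ext
    show a = b
    rw [show a = 0 from ha', show b = 0 from hb']
  have h2 : Nat.card {x : {v : V // Q v = 0} // ¬ (x : V) = 0}
      = Nat.card {v : V // Q v = 0 ∧ v ≠ 0} :=
    Nat.card_congr (Equiv.subtypeSubtypeEquivSubtypeInter (fun v : V => Q v = 0)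
      (fun v => ¬ v = 0))
  rw [h1, h2]
  omega

theorem card_fibre [Fintype F] [Finite V] (Q : QuadraticForm F V) (hS : Sep Q) {e : V}
    (he : Q e = 0) (he0 : e ≠ 0) :
    Nat.card {f : V // Q f = 0 ∧ polar Q e f = 1} * Fintype.card F * Fintype.card F
      = Nat.card V := by
  obtain ⟨f₀, hf₀, hef₀⟩ := exists_hyp_pair hS he0 he
  have hee : polar Q e e = 0 := by rw [polar_self', he, mul_zero]
  have e1 : V ≃ {a : V // polar Q e a = 1} × F :=
    { toFun := fun v => (⟨v - (polar Q e v - 1) • f₀, by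
          rw [polar_sub_right, polar_smul_r, hef₀]; ring⟩, polar Q e v)
      invFun := fun p => (p.1 : V) + (p.2 - 1) • f₀
      left_inv := fun v => by
        show v - (polar Q e v - 1) • f₀ + (polar Q e v - 1) • f₀ = v
        abel
      right_inv := fun p => by
        obtain ⟨⟨a, ha⟩, c⟩ := p
        have h1 : polar Q e (a + (c - 1) • f₀) = c := by
          rw [polar_add_right, polar_smul_r, hef₀, ha]; ring
        apply Prod.ext
        · apply Subtype.ext
          show a + (c - 1) • f₀ - (polar Q e (a + (c - 1) • f₀) - 1) • f₀ = a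
          rw [h1]
          abel
        · exact h1 }
  have e2 : {a : V // polar Q e a = 1} ≃ {f : V // Q f = 0 ∧ polar Q e f = 1} × F :=
    { toFun := fun a => (⟨(a : V) - Q (a : V) • e, by
          have ha := a.2
          have hae : polar Q (a : V) e = 1 := by rw [polar_comm]; exact ha
          constructor
          · have : (a : V) - Q (a : V) • e = (a : V) + (-Q (a : V)) • e := by
              rw [neg_smul, sub_eq_add_neg]
            rw [this, q_add, q_smul, he, polar_smul_r, hae]; ring
          · rw [polar_sub_right, polar_smul_r, hee, ha]; ring⟩, Q (a : V))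
      invFun := fun p => ⟨(p.1 : V) + p.2 • e, by
          rw [polar_add_right, polar_smul_r, hee, p.1.2.2]; ring⟩
      left_inv := fun a => by
        apply Subtype.ext
        show (a : V) - Q (a : V) • e + Q (a : V) • e = a
        abel
      right_inv := fun p => by
        obtain ⟨⟨s, hs1, hs2⟩, c⟩ := p
        have hse : polar Q s e = 1 := by rw [polar_comm]; exact hs2
        have h1 : Q (s + c • e) = c := by
          rw [q_add, q_smul, he, hs1, polar_smul_r, hse]; ring
        apply Prod.ext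
        · apply Subtype.ext
          show s + c • e - Q (s + c • e) • e = s
          rw [h1]
          abel
        · exact h1 }
  rw [Nat.card_congr e1, Nat.card_prod, Nat.card_congr e2, Nat.card_prod,
    Nat.card_eq_fintype_card (α := F)]

instance instFiniteHP [Finite V] (Q : QuadraticForm F V) : Finite (HP Q) := by
  unfold HP; infer_instance

instance instFiniteHS [Finite V] (Q : QuadraticForm F V) (h : ℕ) : Finite (HS Q h) := by
  unfold HS; infer_instance

theorem card_HP [Fintype F] [FiniteDimensional F V] (Q : QuadraticForm F V) (k : ℕ)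
    (hV : finrank F V = 2 * k + 1) (hS : Sep Q) :
    Nat.card (HP Q) * Fintype.card F ^ 2
      = (Fintype.card F ^ (2 * k) - 1) * Fintype.card F ^ (2 * k + 1) := by
  classical
  have : Finite V := Module.finite_of_finite F
  have eqv : HP Q ≃ Σ e : {v : V // Q v = 0 ∧ v ≠ 0},
      {f : V // Q f = 0 ∧ polar Q (e : V) f = 1} :=
    { toFun := fun p => ⟨⟨p.1.1, p.2.1, by
          intro h0
          have := p.2.2.2
          rw [h0] at this
          simp at this⟩, ⟨p.1.2, p.2.2.1, p.2.2.2⟩⟩
      invFun := fun s => ⟨(s.1.1, s.2.1), s.1.2.1, s.2.2.1, s.2.2.2⟩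
      left_inv := fun p => rfl
      right_inv := fun s => rfl }
  haveI : Fintype {v : V // Q v = 0 ∧ v ≠ 0} := Fintype.ofFinite _
  rw [Nat.card_congr eqv, Nat.card_sigma, Finset.sum_mul]
  have hcV : Nat.card V = Fintype.card F ^ (2 * k + 1) := by
    rw [Module.natCard_eq_pow_finrank (K := F), hV, Nat.card_eq_fintype_card]
  have hfib : ∀ e : {v : V // Q v = 0 ∧ v ≠ 0},
      Nat.card {f : V // Q f = 0 ∧ polar Q (e : V) f = 1} * Fintype.card F ^ 2
        = Fintype.card F ^ (2 * k + 1) := by
    intro e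
    rw [pow_two, ← mul_assoc, card_fibre Q hS e.2.1 e.2.2, hcV]
  rw [Finset.sum_congr rfl (fun e _ => hfib e), Finset.sum_const, Finset.card_univ, smul_eq_mul,
    Fintype.card_eq_nat_card]
  have := card_sing_ne Q k hV hS
  rw [← this, Nat.add_sub_cancel]

/-- the first pair of a hyperbolic system -/
def fst (Q : QuadraticForm F V) (h : ℕ) (s : HS Q (h + 1)) : HP Q :=
  ⟨(s.1.1 0, s.1.2 0), s.2.1 0, s.2.2.1 0, by
    have := s.2.2.2.1 0 0
    rw [if_pos rfl] at this
    exact this⟩

theorem fst_fst {Q : QuadraticForm F V} {h : ℕ} {s : HS Q (h + 1)} {p : HP Q}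
    (hs : fst Q h s = p) : s.1.1 0 = p.1.1 := congrArg (fun p : HP Q => p.1.1) hs

theorem fst_snd {Q : QuadraticForm F V} {h : ℕ} {s : HS Q (h + 1)} {p : HP Q}
    (hs : fst Q h s = p) : s.1.2 0 = p.1.2 := congrArg (fun p : HP Q => p.1.2) hs

/-- the systems with a given first pair are the systems of the orthogonal complement -/
def fibEquiv (Q : QuadraticForm F V) (h : ℕ) (p : HP Q) :
    {s : HS Q (h + 1) // fst Q h s = p} ≃ HS (res Q (perp2 (polarBilin Q) p.1.1 p.1.2)) h where
  toFun := fun s => ⟨(fun a => ⟨s.1.1.1 a.succ, by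
        rw [mem_perp2, pB_apply, pB_apply, ← fst_fst s.2, ← fst_snd s.2]
        refine ⟨s.1.2.2.2.2.1 0 a.succ, ?_⟩
        rw [polar_comm]
        have := s.1.2.2.2.1 a.succ 0
        rw [if_neg (Fin.succ_ne_zero a)] at this
        exact this⟩,
      fun a => ⟨s.1.1.2 a.succ, by
        rw [mem_perp2, pB_apply, pB_apply, ← fst_fst s.2, ← fst_snd s.2]
        refine ⟨?_, s.1.2.2.2.2.2 0 a.succ⟩
        have := s.1.2.2.2.1 0 a.succ
        rw [if_neg (Fin.succ_ne_zero a).symm] at this
        exact this⟩),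
    fun a => s.1.2.1 a.succ, fun a => s.1.2.2.1 a.succ,
    fun a b => by
      have := s.1.2.2.2.1 a.succ b.succ
      by_cases hab : a = b
      · rw [if_pos (by rw [hab])] at this
        rw [if_pos hab]
        exact this
      · rw [if_neg (fun hh => hab (Fin.succ_injective _ hh))] at this
        rw [if_neg hab]
        exact this,
    fun a b => s.1.2.2.2.2.1 a.succ b.succ, fun a b => s.1.2.2.2.2.2 a.succ b.succ⟩
  invFun := fun r => ⟨⟨(Fin.cons p.1.1 (fun a => ((r.1.1 a : perp2 (polarBilin Q) p.1.1 p.1.2) : V)),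
      Fin.cons p.1.2 (fun a => ((r.1.2 a : perp2 (polarBilin Q) p.1.1 p.1.2) : V))),
      isHyp_cons p.2.1 p.2.2.1 p.2.2.2 r.2⟩, rfl⟩
  left_inv := fun s => by
    apply Subtype.ext
    apply Subtype.ext
    apply Prod.ext
    · funext i
      induction i using Fin.cases with
      | zero => exact (fst_fst s.2).symm
      | succ i => rfl
    · funext i
      induction i using Fin.cases with
      | zero => exact (fst_snd s.2).symm
      | succ i => rfl
  right_inv := fun r => by
    apply Subtype.ext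
    apply Prod.ext
    · funext a
      apply Subtype.ext
      rfl
    · funext a
      apply Subtype.ext
      rfl

theorem card_HS [Fintype F] (h : ℕ) : ∀ (k : ℕ) (V : Type u) [AddCommGroup V] [Module F V]
    [FiniteDimensional F V] (Q : QuadraticForm F V), finrank F V = 2 * k + 1 → Sep Q → h ≤ k →
    Nat.card (HS Q h) * Fintype.card F ^ (2 * h)
      = ∏ t ∈ Finset.range h,
          ((Fintype.card F ^ (2 * (k - t)) - 1) * Fintype.card F ^ (2 * (k - t) + 1)) := by
  induction h with
  | zero =>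
    intro k V _ _ _ Q hV hS hk
    have : Nat.card (HS Q 0) = 1 := by
      rw [Nat.card_eq_one_iff_unique]
      refine ⟨⟨?_⟩, ⟨⟨(Fin.elim0, Fin.elim0), fun i => i.elim0, fun i => i.elim0,
        fun i => i.elim0, fun i => i.elim0, fun i => i.elim0⟩⟩⟩
      rintro ⟨⟨a, b⟩, _⟩ ⟨⟨a', b'⟩, _⟩
      apply Subtype.ext
      apply Prod.ext <;> exact Subsingleton.elim _ _
    rw [this]
    simp
  | succ h ih =>
    intro k V _ _ _ Q hV hS hk
    classical
    have : Finite V := Module.finite_of_finite F
    obtain ⟨k', rfl⟩ : ∃ k', k = k' + 1 := ⟨k - 1, by omega⟩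
    have : Fintype (HP Q) := Fintype.ofFinite _
    have e := Nat.card_congr (Equiv.sigmaFiberEquiv (fst Q h))
    rw [← e, Nat.card_sigma]
    have hfib : ∀ p : HP Q, Nat.card {s : HS Q (h + 1) // fst Q h s = p}
        * Fintype.card F ^ (2 * h)
        = ∏ t ∈ Finset.range h,
          ((Fintype.card F ^ (2 * (k' - t)) - 1) * Fintype.card F ^ (2 * (k' - t) + 1)) := by
      intro p
      rw [Nat.card_congr (fibEquiv Q h p)]
      exact ih k' _ (res Q _) (by have := finrank_perp2' p.2.1 p.2.2.1 p.2.2.2; omega)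
        (sep_perp2 hS p.2.1 p.2.2.1 p.2.2.2) (by omega)
    have h2h : 2 * (h + 1) = 2 * h + 2 := by ring
    rw [Finset.prod_range_succ', h2h, pow_add, ← mul_assoc, Finset.sum_mul,
      Finset.sum_congr rfl (fun p _ => hfib p), Finset.sum_const, Finset.card_univ, smul_eq_mul,
      Fintype.card_eq_nat_card]
    have hP := card_HP Q (k' + 1) hV hS
    have hprod : ∏ t ∈ Finset.range h, ((Fintype.card F ^ (2 * (k' + 1 - (t + 1))) - 1)
          * Fintype.card F ^ (2 * (k' + 1 - (t + 1)) + 1))
        = ∏ t ∈ Finset.range h, ((Fintype.card F ^ (2 * (k' - t)) - 1)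
          * Fintype.card F ^ (2 * (k' - t) + 1)) := by
      apply Finset.prod_congr rfl
      intro t _
      rw [Nat.add_sub_add_right]
    rw [hprod, Nat.sub_zero, ← hP]
    ring

end abstract

theorem main : Cfsg.Agent.Lib.Helper37.HypStmt.HypCnt.{u} := by
  intro F _ _ hodd d h hhd r hr hrq hdvd
  have h2 : (2 : F) ≠ 0 := by
    intro h
    have hch : ringChar F = 2 :=
      CharP.ringChar_of_prime_eq_zero Nat.prime_two (by exact_mod_cast h)
    have := FiniteField.even_card_of_char_two hch
    rcases hodd with ⟨m, hm⟩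
    omega
  have hV : finrank F (Cfsg.Agent.Lib.Helper37.HypStmt.I d → F) = 2 * d + 1 := by
    rw [Module.finrank_fintype_fun_eq_card]
    simp
    ring
  have hS := Cfsg.Agent.Lib.Helper44.NegPairs.sep_oddQ h2 d
  have hc := card_HS (F := F) h d (Cfsg.Agent.Lib.Helper37.HypStmt.I d → F)
    (Cfsg.Agent.Lib.Helper44.NegPairs.oddQ d F) hV hS hhd
  have hcard : Nat.card (Cfsg.Agent.Lib.Helper37.HypStmt.HSys d F h)
      = Nat.card (HS (Cfsg.Agent.Lib.Helper44.NegPairs.oddQ d F) h) :=
    Nat.card_congr (Equiv.subtypeEquivRight (fun ef =>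
      ⟨fun ⟨a, b, c, d, e⟩ => ⟨a, b, e, c, d⟩, fun ⟨a, b, e, c, d⟩ => ⟨a, b, c, d, e⟩⟩))
  have hprod : r ∣ ∏ t ∈ Finset.range h, ((Fintype.card F ^ (2 * (d - t)) - 1)
      * Fintype.card F ^ (2 * (d - t) + 1)) := by
    rw [← hc, ← hcard]
    exact Dvd.dvd.mul_right hdvd _
  obtain ⟨t, ht, hdt⟩ := (Nat.Prime.prime hr).exists_mem_finset_dvd hprod
  refine ⟨t, Finset.mem_range.mp ht, ?_⟩
  rcases (Nat.Prime.dvd_mul hr).mp hdt with h1 | h1
  · exact h1
  · exact absurd (hr.dvd_of_dvd_pow h1) hrq

end Cfsg.Agent.Lib.Helper38.HypHYPCNT
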