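import Mathlib
import Cfsg.Agent.Lib.Helper37.HypStmt
import Cfsg.Agent.Lib.Helper44.OTyp2
import Cfsg.Agent.Lib.Helper44.SpinCount
import Cfsg.Agent.Lib.Helper44.NegPairs

set_option autoImplicit false

namespace Cfsg.Agent.Lib.Helper38.HypTYPEEVEN

open Module QuadraticMap
open Cfsg.Agent.Lib.Helper44.Split Cfsg.Agent.Lib.Helper44.QSpace
open Cfsg.Agent.Lib.Helper44.QClass Cfsg.Agent.Lib.Helper44.QBasis
open Cfsg.Agent.Lib.Helper44.SpinCount Cfsg.Agent.Lib.Helper44.OGroup
open Cfsg.Agent.Lib.Helper44.OTyp1 Cfsg.Agent.Lib.Helper44.OTyp2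
open Cfsg.Agent.Lib.Helper44.NegPairs
open Cfsg.Agent.Lib.Helper37.HypStmt
open scoped Matrix

universe u

theorem main : Cfsg.Agent.Lib.Helper37.HypStmt.TypeEven.{u} := by
  intro F _ _ p _ _ hodd d r _ hr2 hrp hev x hx hxr E hStab hND hfix
  classical
  obtain ⟨Q, hQ⟩ : ∃ Q : QuadraticForm F (I d → F), Q = oddQ d F := ⟨_, rfl⟩
  have hQc : ∀ v, Q v = Cfsg.quadFormOdd d F v := fun v => by rw [hQ]; rfl
  obtain ⟨Q', hQ'⟩ : ∃ Q' : QuadraticForm F ↥E, Q' = res Q E := ⟨_, rfl⟩
  have hQ'a : ∀ v : ↥E, Q' v = Cfsg.quadFormOdd d F (v : I d → F) := fun v => by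
    rw [hQ', ← hQc]; rfl
  have hpol : ∀ v w : ↥E, polar Q' v w
      = polar (Cfsg.quadFormOdd d F) (v : I d → F) (w : I d → F) := fun v w => by
    rw [hQ', hQ]; rfl
  have hS : Sep Q' := by
    intro v hv
    by_contra hv0
    have hv0' : (v : I d → F) ≠ 0 := fun h => hv0 (Subtype.ext h)
    obtain ⟨-, ⟨y, hyE, hy⟩⟩ := hND v v.2 hv0'
    apply hy
    have := hv ⟨y, hyE⟩
    rw [hpol] at this
    exact this
  -- the restriction of `x` to `E`
  have hmap : ∀ v ∈ E, Matrix.toLin' (x : Matrix (I d) (I d) F) v ∈ E :=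
    fun v hv => hStab (Submodule.mem_map_of_mem hv)
  have key : ∀ w : I d → F, ((x⁻¹ : Matrix.GeneralLinearGroup (I d) F) : Matrix (I d) (I d) F)
      *ᵥ ((x : Matrix (I d) (I d) F) *ᵥ w) = w := fun w => by
    rw [Matrix.mulVec_mulVec, Units.inv_mul, Matrix.one_mulVec]
  obtain ⟨φ, hφ⟩ : ∃ φ : ↥E →ₗ[F] ↥E, ∀ v : ↥E,
      ((φ v : ↥E) : I d → F) = (x : Matrix (I d) (I d) F) *ᵥ (v : I d → F) :=
    ⟨(Matrix.toLin' (x : Matrix (I d) (I d) F)).restrict hmap, fun v => rfl⟩
  have hφinj : Function.Injective φ := by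
    intro a b hab
    have h1 : (x : Matrix (I d) (I d) F) *ᵥ (a : I d → F)
        = (x : Matrix (I d) (I d) F) *ᵥ (b : I d → F) := by
      rw [← hφ, ← hφ, hab]
    apply Subtype.ext
    calc (a : I d → F) = ((x⁻¹ : Matrix.GeneralLinearGroup (I d) F) : Matrix (I d) (I d) F)
          *ᵥ ((x : Matrix (I d) (I d) F) *ᵥ (a : I d → F)) := (key _).symm
      _ = ((x⁻¹ : Matrix.GeneralLinearGroup (I d) F) : Matrix (I d) (I d) F)
          *ᵥ ((x : Matrix (I d) (I d) F) *ᵥ (b : I d → F)) := by rw [h1]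
      _ = b := key _
  obtain ⟨g, hg⟩ : ∃ g : ↥E ≃ₗ[F] ↥E, ∀ v : ↥E,
      ((g v : ↥E) : I d → F) = (x : Matrix (I d) (I d) F) *ᵥ (v : I d → F) :=
    ⟨LinearEquiv.ofInjectiveEndo φ hφinj, fun v => by
      have h1 : (LinearEquiv.ofInjectiveEndo φ hφinj) v = φ v := by
        rw [← LinearEquiv.coe_ofInjectiveEndo φ hφinj]
      rw [h1]; exact hφ v⟩
  have hgO : g ∈ O Q' := by
    intro v
    rw [hQ'a, hQ'a, hg]
    exact hx (v : I d → F) (v : I d → F)
  have hgpow : ∀ n : ℕ, ∀ v : ↥E, (((g ^ n) v : ↥E) : I d → F)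
      = ((x : Matrix (I d) (I d) F) ^ n) *ᵥ (v : I d → F) := by
    intro n
    induction n with
    | zero => intro v; simp
    | succ n ih =>
      intro v
      rw [pow_succ, LinearEquiv.mul_apply, ih, hg, Matrix.mulVec_mulVec, ← pow_succ]
  have hgr : g ^ r = 1 := by
    apply LinearEquiv.ext
    intro v
    apply Subtype.ext
    rw [hgpow, ← Units.val_pow_eq_pow_val, hxr]
    simp
  have hfree : ∀ v : ↥E, v ≠ 0 → g v ≠ v := by
    intro v hv hgv'
    apply hv
    have h1 : (v : I d → F) ∈ E ⊓ Fx (x : Matrix (I d) (I d) F) :=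
      Submodule.mem_inf.mpr ⟨v.2, (mem_Fx _ _).mpr (by rw [← hg, hgv'])⟩
    rw [hfix] at h1
    exact Subtype.ext ((Submodule.mem_bot F).mp h1)
  -- `i ∣ dim E`
  obtain ⟨i, hi⟩ : ∃ i, i = orderOf ((Fintype.card F : ℕ) : ZMod r) := ⟨_, rfl⟩
  rw [← hi] at hev ⊢
  have hdiv : i ∣ finrank F ↥E := by
    obtain ⟨s, hs1, hs2⟩ := dvd_sing (0 : QuadraticForm F ↥E) g (fun v => rfl) hgr hfree
    have hc : Nat.card {v : ↥E // (0 : QuadraticForm F ↥E) v = 0}
        = Fintype.card F ^ finrank F ↥E := by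
      rw [Nat.card_congr (Equiv.subtypeUnivEquiv
          (p := fun v : ↥E => (0 : QuadraticForm F ↥E) v = 0) (fun v => rfl)),
        Module.natCard_eq_pow_finrank (K := F), Nat.card_eq_fintype_card]
    rw [hc] at hs1
    rw [hi, orderOf_dvd_iff_pow_eq_one]
    have h1 : ((Fintype.card F ^ finrank F ↥E : ℕ) : ZMod r) = 1 := by
      rw [hs1, Nat.cast_add, Nat.cast_one, (ZMod.natCast_eq_zero_iff s r).mpr hs2, add_zero]
    rw [← h1, Nat.cast_pow]
  obtain ⟨K, hK⟩ := hdiv
  rcases Nat.eq_zero_or_pos (finrank F ↥E) with h0 | hpos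
  · rw [h0, Nat.zero_div]
    refine ⟨fun _ => Even.zero, fun _ => ⟨⊥, bot_le, fun w hw => ?_, by simp [h0]⟩⟩
    rw [(Submodule.mem_bot F).mp hw, ← hQc]
    exact map_zero Q
  · have hipos : 0 < i := by
      rcases Nat.eq_zero_or_pos i with h | h
      · rw [h, zero_mul] at hK
        omega
      · exact h
    obtain ⟨j, hj⟩ := hev
    have hjK : finrank F ↥E = 2 * (j * K) := by rw [hK, hj]; ring
    obtain ⟨k, hk'⟩ : ∃ k, j * K = k + 1 := Nat.exists_eq_succ_of_ne_zero (by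
      intro h
      rw [h] at hjK
      omega)
    have hk : finrank F ↥E = 2 * (k + 1) := by rw [hjK, hk']
    have hK2 : 2 * (k + 1) = i * K := by rw [← hk, hK]
    obtain ⟨he1, he2⟩ := obs_even Q' hS hk hr2 g hgO hgr hfree i hi ⟨j, hj⟩ K hK2
    have hdivK : finrank F ↥E / i = K := by
      rw [hK]
      exact Nat.mul_div_cancel_left K hipos
    rw [hdivK]
    have hq2 : 2 ≤ Fintype.card F := Fintype.one_lt_card
    constructor
    · rintro ⟨U, hUE, hUts, hUdim⟩
      by_contra hKodd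
      have hN := he2 hKodd
      have hfU : k + 1 ≤ finrank F ↥(U.comap E.subtype) := by
        rw [(Submodule.comapSubtypeEquivOfLe hUE).finrank_eq]
        have h2 : 2 * finrank F ↥U = 2 * (k + 1) := hUdim.trans hk
        omega
      obtain ⟨e, f, hH⟩ := hyp_of_ts' hS hk (U := U.comap E.subtype)
        (fun u hu => by rw [hQ'a]; exact hUts _ hu) hfU
      have hP := card_P Q' hH hk
      exact NP_ne_NM (Fintype.card F) k hq2 (by rw [← hP, ← hN])
    · intro hKev
      have hN := he1 hKev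
      rcases exists_hyp_even k ↥E Q' hk hS with ⟨e, f, hH⟩ | ⟨e, f, x', y', ζ, hH, hE, horth⟩
      · have hli : LinearIndependent F e := by
          have h := linearIndependent_hyp hH (fun t : Fin 0 => t.elim0)
            linearIndependent_empty_type (fun _ t => t.elim0) (fun _ t => t.elim0)
          exact h.comp (Sum.inl ∘ Sum.inl) (Sum.inl_injective.comp Sum.inl_injective)
        refine ⟨(Submodule.span F (Set.range e)).map E.subtype, Submodule.map_subtype_le _ _,
          ?_, ?_⟩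
        · rintro w ⟨u, hu, rfl⟩
          obtain ⟨c, rfl⟩ := (Submodule.mem_span_range_iff_exists_fun F).mp hu
          have h := q_hyp_sum hH c (fun _ => 0) Finset.univ
          simp only [zero_smul, add_zero, mul_zero, Finset.sum_const_zero] at h
          rw [hQ'a] at h
          exact h
        · rw [Submodule.finrank_map_subtype_eq, finrank_span_eq_card hli, Fintype.card_fin, hk]
      · exfalso
        have hM := card_M Q' hH hE horth hk
        exact NP_ne_NM (Fintype.card F) k hq2 (by rw [← hN, ← hM])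

end Cfsg.Agent.Lib.Helper38.HypTYPEEVEN
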