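import Mathlib
import Cfsg.Agent.Lib.Helper36.ReeSolvStmt
import Cfsg.Agent.Lib.Helper78.Fitting
import Cfsg.Agent.S0044

set_option autoImplicit false

/-! Piece [CORE] of S2361: a solvable subgroup normalizes a nontrivial `p`-subgroup for an odd
prime `p`, or has a self-centralizing normal 2-subgroup. -/

namespace Cfsg.Agent.Lib.Helper38.RSCORE

open Cfsg.Agent.Lib.Helper36.ReeSolvStmt
open Cfsg.Agent.Lib.Helper78.Fitting

universe u

theorem norm_map {G : Type u} [Group G] (S : Subgroup G) (N : Subgroup ↥S) (hN : N.Normal) :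
    S ≤ Subgroup.normalizer ((N.map S.subtype : Subgroup G) : Set G) := by
  intro s hs
  rw [Subgroup.mem_normalizer_iff]
  intro x
  constructor
  · rintro ⟨y, hy, rfl⟩
    exact ⟨⟨s, hs⟩ * y * ⟨s, hs⟩⁻¹, hN.conj_mem y hy ⟨s, hs⟩, rfl⟩
  · rintro ⟨y, hy, hxy⟩
    refine ⟨⟨s, hs⟩⁻¹ * y * ⟨s, hs⟩, ?_, ?_⟩
    · have h1 := hN.conj_mem y hy ⟨s, hs⟩⁻¹
      rw [inv_inv] at h1
      exact h1
    · have h2 : S.subtype y = s * x * s⁻¹ := hxy
      show s⁻¹ * S.subtype y * s = x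
      rw [h2]
      group

theorem main : CoreP.{u} := by
  intro G _ _ S hS
  haveI := hS
  by_cases h : ∃ p : Nat.Primes, (p : ℕ) ≠ 2 ∧ Cfsg.pCore (p : ℕ) ↥S ≠ ⊥
  · obtain ⟨p, hp2, hne⟩ := h
    haveI : Fact (p : ℕ).Prime := ⟨p.2⟩
    left
    refine ⟨p, (Cfsg.pCore (p : ℕ) ↥S).map S.subtype, p.2, hp2, ?_, ?_, ?_⟩
    · intro h0
      apply hne
      exact (Subgroup.map_eq_bot_iff_of_injective _ S.subtype_injective).mp h0
    · exact (pCore_isPGroup (p : ℕ)).map S.subtype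
    · exact norm_map S (Cfsg.pCore (p : ℕ) ↥S) (pCore_normal _)
  · right
    push_neg at h
    have hF : Cfsg.fittingSubgroup ↥S = Cfsg.pCore 2 ↥S := by
      rw [fitting_eq_iSup_pCore]
      apply le_antisymm
      · apply iSup_le
        intro p
        by_cases hp : (p : ℕ) = 2
        · rw [hp]
        · rw [h p hp]; exact bot_le
      · exact le_iSup (fun p : Nat.Primes => Cfsg.pCore (p : ℕ) ↥S) ⟨2, Nat.prime_two⟩
    haveI : Fact (Nat.Prime 2) := ⟨Nat.prime_two⟩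
    refine ⟨(Cfsg.fittingSubgroup ↥S).map S.subtype, Subgroup.map_subtype_le _, ?_, ?_, ?_⟩
    · rw [hF]; exact (pCore_isPGroup 2).map S.subtype
    · exact norm_map S _ fitting_normal
    · intro s hs hcomm
      have hc : (⟨s, hs⟩ : ↥S) ∈ Subgroup.centralizer (Cfsg.fittingSubgroup ↥S : Set ↥S) := by
        rw [Subgroup.mem_centralizer_iff]
        intro t ht
        apply Subtype.ext
        exact (hcomm t.1 (Subgroup.mem_map_of_mem S.subtype ht)).symm
      exact ⟨⟨s, hs⟩, Cfsg.Agent.S0044.result hc, rfl⟩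

end Cfsg.Agent.Lib.Helper38.RSCORE
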