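import Mathlib
import Cfsg.Agent.Lib.Helper53.Sp4ANF

/-!
# S5320, piece ACEN (backup copy by helper38): `C_G(A) ≤ A`
-/

set_option autoImplicit false

namespace Cfsg.Agent.Lib.Helper38.Sp4ACEN

open Cfsg.Agent.Lib.Helper38.Sp4Stmt Cfsg.Agent.Lib.Helper53.Sp4ANF

universe u v

variable {G : Type u} {L : Type v} [Group G] [Group L] {ψ : L × L →* G} {τ : G} {ε : L}

/-- `τ` commutes with every `ψ (a, δ a)` -/
theorem tau_comm_psi (h : Data ψ τ ε) (a : L) {δ : L} (hδ : δ = 1 ∨ δ = ε) :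
    τ * ψ (a, δ * a) = ψ (a, δ * a) * τ := by
  rw [tau_mul h]
  rcases hδ with rfl | rfl
  · rw [one_mul]
  · rw [psi_swap_eps h]

/-- `τ` is central in `A` -/
theorem tau_central (h : Data ψ τ ε) {Q : Subgroup L} (hQ : QData ε Q) {x : G}
    (hx : x ∈ AA ψ τ ε Q) : τ * x = x * τ := by
  obtain ⟨a, -, δ, hδ, rfl | rfl⟩ := aa_nf h hQ hx
  · exact tau_comm_psi h a hδ
  · rw [← mul_assoc, tau_comm_psi h a hδ]

/-- **[ACEN]** `C_G(A) ≤ A` -/
theorem main : ACEN.{u, v} := by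
  intro G L _ _ ψ τ ε Q w hD hQ hQ8 g hg
  have key : ∀ a b : L, (∀ x ∈ AA ψ τ ε Q, ψ (a, b) * x = x * ψ (a, b)) →
      ψ (a, b) ∈ AA ψ τ ε Q := by
    intro a b hab
    have ha : a ∈ Q := by
      refine hQ8.triv a (fun c hc => ?_)
      have h5 := hab (ψ (c, c)) (diag_mem ψ τ ε hc)
      rw [psi_mul, psi_mul] at h5
      rcases psi_eq hD h5 with ⟨h6, -⟩ | ⟨h6, -⟩
      · left
        rw [h6]
        group
      · right
        rw [h6]
        group
    have h1 := hab τ (tau_mem ψ τ ε Q)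
    rw [tau_mul hD] at h1
    have h2 : ψ (a, b) = ψ (b, a) := mul_right_cancel h1
    rcases psi_eq hD h2 with ⟨h3, -⟩ | ⟨-, h4⟩
    · rw [← h3]
      exact diag_mem ψ τ ε ha
    · rw [h4]
      exact mem_AA_psi hD ha (Or.inr rfl)
  have hz := hg (ψ (ε, 1)) (z_mem ψ τ ε Q)
  obtain ⟨a, b, rfl | rfl⟩ := hD.cent g hz
  · exact key a b hg
  · have hc : ∀ x ∈ AA ψ τ ε Q, ψ (a, b) * x = x * ψ (a, b) := by
      intro x hx
      have h1 := hg x hx
      have h2 := tau_central hD hQ hx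
      apply mul_right_cancel (b := τ)
      rw [mul_assoc, ← h2, ← mul_assoc, h1, mul_assoc]
    exact (AA ψ τ ε Q).mul_mem (key a b hc) (tau_mem ψ τ ε Q)

end Cfsg.Agent.Lib.Helper38.Sp4ACEN
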