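import Mathlib
import Cfsg.Agent.Lib.Helper41.SubfStmt

set_option autoImplicit false

namespace Cfsg.Agent.Lib.Helper38.SubfDIAGBAD

open Polynomial Cfsg.Agent.Lib.Helper41.SubfStmt

universe u

theorem main : DiagBad.{u} := by
  intro F _ _ n F₀ q₀ hq₀ r _ lam hord d hd e hgood
  classical
  obtain ⟨S, c, A₀, hS, hc, hSx⟩ := hgood
  have hr : r.Prime := Fact.out
  have : NeZero r := ⟨hr.ne_zero⟩
  -- basic facts on `lam`
  have hmod : ∀ m : ℕ, lam ^ (m % r) = lam ^ m := by
    intro m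
    rw [← hord]; exact pow_mod_orderOf lam m
  have hlam0 : lam ≠ 0 := by
    rintro rfl
    have h1 : (0 : F) ^ r = 1 := by
      have h2 := pow_orderOf_eq_one (0 : F)
      rwa [hord] at h2
    rw [zero_pow hr.ne_zero] at h1
    exact zero_ne_one h1
  have hLadd : ∀ a b : ZMod r, lam ^ (a + b).val = lam ^ a.val * lam ^ b.val := by
    intro a b
    rw [ZMod.val_add, hmod, pow_add]
  have hLinj : ∀ a b : ZMod r, lam ^ a.val = lam ^ b.val → a = b := by
    intro a b h
    have h1 : a.val ∈ Set.Iio (orderOf lam) := by rw [hord]; exact ZMod.val_lt a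
    have h2 : b.val ∈ Set.Iio (orderOf lam) := by rw [hord]; exact ZMod.val_lt b
    exact ZMod.val_injective r (pow_injOn_Iio_orderOf h1 h2 h)
  have hLpow : ∀ a : ZMod r, (lam ^ a.val) ^ q₀ = lam ^ (((q₀ : ℕ) : ZMod r) * a).val := by
    intro a
    calc (lam ^ a.val) ^ q₀ = lam ^ (q₀ * a.val) := by rw [← pow_mul, mul_comm]
      _ = (lam ^ q₀) ^ a.val := pow_mul _ _ _
      _ = (lam ^ (q₀ % r)) ^ a.val := by rw [hmod q₀]
      _ = lam ^ ((q₀ % r) * a.val) := (pow_mul _ _ _).symm
      _ = lam ^ ((q₀ % r) * a.val % r) := (hmod _).symm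
      _ = _ := by rw [ZMod.val_mul, ZMod.val_natCast]
  -- the Frobenius of `F` over `F₀`
  have : Fintype F₀ := Fintype.ofFinite F₀
  have hcard : Fintype.card F₀ = q₀ := by rw [← Nat.card_eq_fintype_card, hq₀]
  let φ : F →ₐ[F₀] F := FiniteField.frobeniusAlgHom F₀ F
  have hφ : ∀ x : F, φ x = x ^ q₀ := by
    intro x
    change x ^ Fintype.card F₀ = x ^ q₀
    rw [hcard]
  set t : F := c⁻¹ * d with ht
  have ht0 : t ≠ 0 := mul_ne_zero (inv_ne_zero hc) hd
  let b : Fin n → F := fun j => t * lam ^ (e j).val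
  have hx' : S * Matrix.diagonal b = A₀.map (F₀.subtype : F₀ →+* F) * S := by
    have h1 : Matrix.diagonal b = c⁻¹ • (d • Matrix.diagonal (fun j => lam ^ (e j).val)) := by
      ext i j
      by_cases hij : i = j
      · subst hij; simp [b, ht, mul_assoc]
      · simp [Matrix.diagonal_apply_ne _ hij]
    rw [h1, Matrix.mul_smul, hSx, Matrix.smul_mul, smul_smul, inv_mul_cancel₀ hc, one_smul]
  have hdetu : IsUnit S.det := by rw [hS]; exact isUnit_one
  let Su : (Matrix (Fin n) (Fin n) F)ˣ :=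
    ⟨S, S⁻¹, Matrix.mul_nonsing_inv S hdetu, Matrix.nonsing_inv_mul S hdetu⟩
  have hchar : (Matrix.diagonal b).charpoly =
      (A₀.charpoly).map (F₀.subtype : F₀ →+* F) := by
    rw [← Matrix.charpoly_map, ← Matrix.charpoly_units_conj Su (Matrix.diagonal b)]
    congr 1
    change S * Matrix.diagonal b * S⁻¹ = _
    rw [hx', Matrix.mul_assoc, Matrix.mul_nonsing_inv S hdetu, Matrix.mul_one]
  have hprod : (Matrix.diagonal b).charpoly =
      ((Finset.univ.val.map b).map (fun a => X - C a)).prod := by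
    rw [Matrix.charpoly_diagonal, Finset.prod_eq_multiset_prod, Multiset.map_map]
    rfl
  have hmapφ : ((Matrix.diagonal b).charpoly).map (φ : F →+* F) =
      (Matrix.diagonal b).charpoly := by
    rw [hchar, Polynomial.map_map]
    congr 1
    ext x
    exact φ.commutes x
  have hR : (Finset.univ.val.map b).map (fun x => x ^ q₀) = Finset.univ.val.map b := by
    have h1 : (((Finset.univ.val.map b).map (fun x => x ^ q₀)).map (fun a => X - C a)).prod
        = ((Matrix.diagonal b).charpoly).map (φ : F →+* F) := by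
      rw [hprod, Polynomial.map_multiset_prod]
      congr 1
      simp only [Multiset.map_map]
      apply Multiset.map_congr rfl
      intro x _
      simp [hφ]
    have h2 := congrArg Polynomial.roots h1
    rw [Polynomial.roots_multiset_prod_X_sub_C, hmapφ, hprod,
      Polynomial.roots_multiset_prod_X_sub_C] at h2
    exact h2
  have hψinj : Function.Injective (fun x : F => x ^ q₀) := by
    intro x y hxy
    have h1 : φ x = φ y := by rw [hφ, hφ]; exact hxy
    exact φ.toRingHom.injective h1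
  have hcount : ∀ x : F, (Finset.univ.val.map b).count (x ^ q₀) =
      (Finset.univ.val.map b).count x := by
    intro x
    conv_lhs => rw [← hR]
    exact Multiset.count_map_eq_count' _ _ hψinj x
  have hN : ∀ a : ZMod r, (Finset.univ.val.map b).count (t * lam ^ a.val) =
      (Finset.univ.filter (fun j => e j = a)).card := by
    intro a
    rw [Multiset.count_map, Finset.card_def, Finset.filter_val]
    congr 1
    apply Multiset.filter_congr
    intro j _
    constructor
    · intro h; exact (hLinj _ _ (mul_left_cancel₀ ht0 h)).symm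
    · intro h; rw [← h]
  rcases Nat.eq_zero_or_pos n with hn | hn
  · subst hn
    exact ⟨0, fun a => by simp⟩
  let j₀ : Fin n := ⟨0, hn⟩
  have hmem : (b j₀) ^ q₀ ∈ Finset.univ.val.map b := by
    rw [← Multiset.count_pos, hcount, Multiset.count_pos]
    exact Multiset.mem_map_of_mem b (Finset.mem_univ_val j₀)
  obtain ⟨j₁, -, hj₁⟩ := Multiset.mem_map.1 hmem
  have htq : t ^ q₀ = t * lam ^ (e j₁ - ((q₀ : ℕ) : ZMod r) * e j₀).val := by
    have h1 : t * lam ^ (e j₁).val = t ^ q₀ * lam ^ (((q₀ : ℕ) : ZMod r) * e j₀).val := by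
      rw [← hLpow, ← mul_pow]; exact hj₁
    have h2 : e j₁ = ((q₀ : ℕ) : ZMod r) * e j₀ + (e j₁ - ((q₀ : ℕ) : ZMod r) * e j₀) := by
      ring
    rw [h2, hLadd] at h1
    have h3 : lam ^ (((q₀ : ℕ) : ZMod r) * e j₀).val ≠ 0 := pow_ne_zero _ hlam0
    apply mul_right_cancel₀ h3
    rw [← h1]; ring
  refine ⟨-(e j₁ - ((q₀ : ℕ) : ZMod r) * e j₀), fun a => ?_⟩
  rw [← hN a, ← hN (((q₀ : ℕ) : ZMod r) * a - -(e j₁ - ((q₀ : ℕ) : ZMod r) * e j₀)), ← hcount]
  congr 1
  rw [mul_pow, htq, hLpow, mul_assoc, ← hLadd]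
  have h4 : e j₁ - ((q₀ : ℕ) : ZMod r) * e j₀ + ((q₀ : ℕ) : ZMod r) * a =
      ((q₀ : ℕ) : ZMod r) * a - -(e j₁ - ((q₀ : ℕ) : ZMod r) * e j₀) := by ring
  rw [h4]

end Cfsg.Agent.Lib.Helper38.SubfDIAGBAD
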