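import Mathlib
import Cfsg.Agent.Lib.Helper41.TMStmt
import Cfsg.Agent.Lib.Helper76.TSTYPEOF

/-!
# S5987 piece TYPEOF (minus form): an invariant subspace of finrank `i` without fixed vectors is
killed by `P(x)` for a monic irreducible factor `P` of the cyclotomic polynomial.
Port of `Cfsg.Agent.Lib.Helper85.TPTYPEOF` (itself a port of `Cfsg.Agent.Lib.Helper76.TSTYPEOF`)
to the index type `M d`; the general lemmas are reused from helper76's file.
-/

set_option autoImplicit false

namespace Cfsg.Agent.Lib.Helper38.TMTYPEOF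

open Cfsg.Agent.Lib.Helper41.TMStmt
open Cfsg.Agent.Lib.Helper45.OMiStmt (M Aniso FxM NDegM StabM)
open Cfsg.Agent.Lib.Helper44.TSStmt (Fac)
open Cfsg.Agent.Lib.Helper76.TSTYPEOF (pow_mem aeval_mem aeval_comm exists_factor_vec normalize_fac)
open Polynomial

universe u

theorem main : InvDim.{u} → TypeOf.{u} := by
  intro hInv F _ _ a₀ b₀ hab p _ _ d r _ hrp x hxr B hBstab hBfix hBdim
  classical
  have hB : ∀ v ∈ B, Matrix.toLin' (x : Matrix (M d) (M d) F) v ∈ B :=
    fun v hv => hBstab (Submodule.mem_map_of_mem hv)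
  have hfr : Matrix.toLin' (x : Matrix (M d) (M d) F) ^ r = 1 := by
    rw [← Matrix.toLin'_pow, ← Units.val_pow_eq_pow_val, hxr, Units.val_one, Matrix.toLin'_one]
    rfl
  have hΦ0 : cyclotomic r F ≠ 0 := Polynomial.cyclotomic_ne_zero r F
  have hΦ : ∀ v ∈ B,
      aeval (Matrix.toLin' (x : Matrix (M d) (M d) F)) (cyclotomic r F) v = 0 := by
    intro v hv
    have h1 := aeval_mem _ B hB (cyclotomic r F) v hv
    have h2 : aeval (Matrix.toLin' (x : Matrix (M d) (M d) F)) (cyclotomic r F) v ∈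
        FxM (x : Matrix (M d) (M d) F) := by
      unfold FxM
      rw [LinearMap.mem_ker]
      have h3 : aeval (Matrix.toLin' (x : Matrix (M d) (M d) F))
          ((X - 1) * cyclotomic r F) = 0 := by
        rw [mul_comm, Polynomial.cyclotomic_prime_mul_X_sub_one, map_sub, map_pow, aeval_X,
          map_one, hfr, sub_self]
      rw [map_mul, map_sub, aeval_X, map_one] at h3
      have h4 := congrArg (fun g => g v) h3
      simpa [Module.End.mul_apply] using h4
    have h5 : aeval (Matrix.toLin' (x : Matrix (M d) (M d) F)) (cyclotomic r F) v ∈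
        B ⊓ FxM (x : Matrix (M d) (M d) F) := ⟨h1, h2⟩
    rw [hBfix] at h5
    exact (Submodule.mem_bot F).1 h5
  by_cases hBbot : B = ⊥
  · have hnu : ¬ IsUnit (cyclotomic r F) := by
      intro hu
      have h1 := Polynomial.natDegree_eq_zero_of_isUnit hu
      rw [Polynomial.natDegree_cyclotomic, Nat.totient_prime (Fact.out)] at h1
      have h2 := (Fact.out : r.Prime).two_le
      omega
    obtain ⟨P₀, hP₀, hdvd⟩ := WfDvdMonoid.exists_irreducible_factor hnu hΦ0
    refine ⟨_, normalize_fac r P₀ hP₀ hdvd, ?_⟩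
    intro v hv
    rw [hBbot, Submodule.mem_bot] at hv
    rw [hv, map_zero]
  · obtain ⟨v, hv, hv0⟩ := (Submodule.ne_bot_iff B).1 hBbot
    obtain ⟨P₀, hP₀, hdvd, w, hw, hw0, hPw⟩ :=
      exists_factor_vec _ B hB (cyclotomic r F) hΦ0 hΦ v hv hv0
    refine ⟨_, normalize_fac r P₀ hP₀ hdvd, ?_⟩
    have hPw' : aeval (Matrix.toLin' (x : Matrix (M d) (M d) F))
        (P₀ * C (P₀.leadingCoeff)⁻¹) w = 0 := by
      rw [mul_comm, map_mul, Module.End.mul_apply, hPw, map_zero]
    have hUstab : StabM (x : Matrix (M d) (M d) F)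
        (B ⊓ LinearMap.ker (aeval (Matrix.toLin' (x : Matrix (M d) (M d) F))
          (P₀ * C (P₀.leadingCoeff)⁻¹))) := by
      rintro _ ⟨u, hu, rfl⟩
      have hu2 : aeval (Matrix.toLin' (x : Matrix (M d) (M d) F))
          (P₀ * C (P₀.leadingCoeff)⁻¹) u = 0 := hu.2
      refine ⟨hB u hu.1, ?_⟩
      change aeval (Matrix.toLin' (x : Matrix (M d) (M d) F))
          (P₀ * C (P₀.leadingCoeff)⁻¹) (Matrix.toLin' (x : Matrix (M d) (M d) F) u) = 0
      have hcomm := aeval_comm (Matrix.toLin' (x : Matrix (M d) (M d) F))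
        (P₀ * C (P₀.leadingCoeff)⁻¹)
      have h2 := congrArg (fun g => g u) hcomm
      simp only [Module.End.mul_apply] at h2
      rw [h2, hu2, map_zero]
    have hUfix : (B ⊓ LinearMap.ker (aeval (Matrix.toLin' (x : Matrix (M d) (M d) F))
          (P₀ * C (P₀.leadingCoeff)⁻¹))) ⊓ FxM (x : Matrix (M d) (M d) F) = ⊥ := by
      rw [eq_bot_iff, ← hBfix]
      exact inf_le_inf_right _ inf_le_left
    have hdiv := hInv F a₀ b₀ hab p d r hrp x hxr _ hUstab hUfix
    have hUpos : 0 < Module.finrank F ↥(B ⊓ LinearMap.ker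
        (aeval (Matrix.toLin' (x : Matrix (M d) (M d) F)) (P₀ * C (P₀.leadingCoeff)⁻¹))) := by
      rw [Module.finrank_pos_iff_exists_ne_zero]
      exact ⟨⟨w, hw, LinearMap.mem_ker.2 hPw'⟩, fun h => hw0 (congrArg Subtype.val h)⟩
    have hle : Module.finrank F ↥B ≤ Module.finrank F ↥(B ⊓ LinearMap.ker
        (aeval (Matrix.toLin' (x : Matrix (M d) (M d) F)) (P₀ * C (P₀.leadingCoeff)⁻¹))) := by
      rw [hBdim]
      exact Nat.le_of_dvd hUpos hdiv
    have hUeq := Submodule.eq_of_le_of_finrank_le inf_le_left hle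
    intro b hb
    rw [← hUeq] at hb
    exact LinearMap.mem_ker.1 hb.2

end Cfsg.Agent.Lib.Helper38.TMTYPEOF
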