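import Mathlib
import Cfsg.Agent.Lib.Helper37.HypStmt
import Cfsg.Agent.Lib.Helper44.OTyp2
import Cfsg.Agent.Lib.Helper44.SpinCount
import Cfsg.Agent.Lib.Helper44.NegPairs

/-!
# Singular vector counts of invariant nondegenerate subspaces (helper lemma for S5972 / PAIRE)

`x` an isometry of `quadFormOdd d F` with `x ^ r = 1`, `r` an odd prime, `i = ord_r(q)` even;
`E` an `x`-invariant nondegenerate subspace without fixed vectors, of dimension `2 (k + 1)`.
Then the number `N` of singular vectors of `E` (zero included) is the plus-type number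
(`N q = q^(k+2) + (q^(k+1) - 1) q^(k+1)`) if `dim E / i` is even and the minus-type number
(`N q = q^(k+1) + q^2 (q^k - 1) q^k`) otherwise.  (`Helper44.OTyp2.obs_even` transported to
subspaces of the standard odd space; same boilerplate as `Helper38.HypTYPEEVEN`.)
-/

set_option autoImplicit false

namespace Cfsg.Agent.Lib.Helper38.TSSingCount

open Module QuadraticMap
open Cfsg.Agent.Lib.Helper44.Split Cfsg.Agent.Lib.Helper44.QSpace
open Cfsg.Agent.Lib.Helper44.QClass Cfsg.Agent.Lib.Helper44.QBasis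
open Cfsg.Agent.Lib.Helper44.SpinCount Cfsg.Agent.Lib.Helper44.OGroup
open Cfsg.Agent.Lib.Helper44.OTyp1 Cfsg.Agent.Lib.Helper44.OTyp2
open Cfsg.Agent.Lib.Helper44.NegPairs
open Cfsg.Agent.Lib.Helper37.HypStmt
open scoped Matrix

universe u

/-- singular vector count, on the subtype `↥E` -/
theorem sing_count_sub {F : Type u} [Field F] [Fintype F] (d r : ℕ) [Fact r.Prime] (hr2 : r ≠ 2)
    (hev : Even (orderOf ((Fintype.card F : ℕ) : ZMod r)))
    (x : Matrix.GeneralLinearGroup (I d) F)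
    (hx : x ∈ Cfsg.isometryGroup F (Cfsg.quadFormOdd d F)) (hxr : x ^ r = 1)
    (E : Submodule F (I d → F)) (hStab : Stab (x : Matrix (I d) (I d) F) E) (hND : NDeg d F E)
    (hfix : E ⊓ Fx (x : Matrix (I d) (I d) F) = ⊥) (k : ℕ)
    (hk : finrank F ↥E = 2 * (k + 1)) :
    (Even (finrank F ↥E / orderOf ((Fintype.card F : ℕ) : ZMod r)) →
      Nat.card {v : ↥E // Cfsg.quadFormOdd d F (v : I d → F) = 0} * Fintype.card F
        = Fintype.card F ^ (k + 1 + 1)
          + (Fintype.card F ^ (k + 1) - 1) * Fintype.card F ^ (k + 1)) ∧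
    (¬ Even (finrank F ↥E / orderOf ((Fintype.card F : ℕ) : ZMod r)) →
      Nat.card {v : ↥E // Cfsg.quadFormOdd d F (v : I d → F) = 0} * Fintype.card F
        = Fintype.card F ^ (k + 1)
          + Fintype.card F ^ 2 * ((Fintype.card F ^ k - 1) * Fintype.card F ^ k)) := by
  classical
  obtain ⟨Q, hQ⟩ : ∃ Q : QuadraticForm F (I d → F), Q = oddQ d F := ⟨_, rfl⟩
  have hQc : ∀ v, Q v = Cfsg.quadFormOdd d F v := fun v => by rw [hQ]; rfl
  obtain ⟨Q', hQ'⟩ : ∃ Q' : QuadraticForm F ↥E, Q' = res Q E := ⟨_, rfl⟩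
  have hQ'a : ∀ v : ↥E, Q' v = Cfsg.quadFormOdd d F (v : I d → F) := fun v => by
    rw [hQ', ← hQc]; rfl
  have hpol : ∀ v w : ↥E, polar Q' v w
      = polar (Cfsg.quadFormOdd d F) (v : I d → F) (w : I d → F) := fun v w => by
    rw [hQ', hQ]; rfl
  have hS : Sep Q' := by
    intro v hv
    by_contra hv0
    have hv0' : (v : I d → F) ≠ 0 := fun h => hv0 (Subtype.ext h)
    obtain ⟨-, ⟨y, hyE, hy⟩⟩ := hND v v.2 hv0'
    apply hy
    have := hv ⟨y, hyE⟩
    rw [hpol] at this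
    exact this
  -- the restriction of `x` to `E`
  have hmap : ∀ v ∈ E, Matrix.toLin' (x : Matrix (I d) (I d) F) v ∈ E :=
    fun v hv => hStab (Submodule.mem_map_of_mem hv)
  have key : ∀ w : I d → F, ((x⁻¹ : Matrix.GeneralLinearGroup (I d) F) : Matrix (I d) (I d) F)
      *ᵥ ((x : Matrix (I d) (I d) F) *ᵥ w) = w := fun w => by
    rw [Matrix.mulVec_mulVec, Units.inv_mul, Matrix.one_mulVec]
  obtain ⟨φ, hφ⟩ : ∃ φ : ↥E →ₗ[F] ↥E, ∀ v : ↥E,
      ((φ v : ↥E) : I d → F) = (x : Matrix (I d) (I d) F) *ᵥ (v : I d → F) :=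
    ⟨(Matrix.toLin' (x : Matrix (I d) (I d) F)).restrict hmap, fun v => rfl⟩
  have hφinj : Function.Injective φ := by
    intro a b hab
    have h1 : (x : Matrix (I d) (I d) F) *ᵥ (a : I d → F)
        = (x : Matrix (I d) (I d) F) *ᵥ (b : I d → F) := by
      rw [← hφ, ← hφ, hab]
    apply Subtype.ext
    calc (a : I d → F) = ((x⁻¹ : Matrix.GeneralLinearGroup (I d) F) : Matrix (I d) (I d) F)
          *ᵥ ((x : Matrix (I d) (I d) F) *ᵥ (a : I d → F)) := (key _).symm
      _ = ((x⁻¹ : Matrix.GeneralLinearGroup (I d) F) : Matrix (I d) (I d) F)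
          *ᵥ ((x : Matrix (I d) (I d) F) *ᵥ (b : I d → F)) := by rw [h1]
      _ = b := key _
  obtain ⟨g, hg⟩ : ∃ g : ↥E ≃ₗ[F] ↥E, ∀ v : ↥E,
      ((g v : ↥E) : I d → F) = (x : Matrix (I d) (I d) F) *ᵥ (v : I d → F) :=
    ⟨LinearEquiv.ofInjectiveEndo φ hφinj, fun v => by
      have h1 : (LinearEquiv.ofInjectiveEndo φ hφinj) v = φ v := by
        rw [← LinearEquiv.coe_ofInjectiveEndo φ hφinj]
      rw [h1]; exact hφ v⟩
  have hgO : g ∈ O Q' := by
    intro v
    rw [hQ'a, hQ'a, hg]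
    exact hx (v : I d → F) (v : I d → F)
  have hgpow : ∀ n : ℕ, ∀ v : ↥E, (((g ^ n) v : ↥E) : I d → F)
      = ((x : Matrix (I d) (I d) F) ^ n) *ᵥ (v : I d → F) := by
    intro n
    induction n with
    | zero => intro v; simp
    | succ n ih =>
      intro v
      rw [pow_succ, LinearEquiv.mul_apply, ih, hg, Matrix.mulVec_mulVec, ← pow_succ]
  have hgr : g ^ r = 1 := by
    apply LinearEquiv.ext
    intro v
    apply Subtype.ext
    rw [hgpow, ← Units.val_pow_eq_pow_val, hxr]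
    simp
  have hfree : ∀ v : ↥E, v ≠ 0 → g v ≠ v := by
    intro v hv hgv'
    apply hv
    have h1 : (v : I d → F) ∈ E ⊓ Fx (x : Matrix (I d) (I d) F) :=
      Submodule.mem_inf.mpr ⟨v.2, (mem_Fx _ _).mpr (by rw [← hg, hgv'])⟩
    rw [hfix] at h1
    exact Subtype.ext ((Submodule.mem_bot F).mp h1)
  -- `i ∣ dim E`
  obtain ⟨i, hi⟩ : ∃ i, i = orderOf ((Fintype.card F : ℕ) : ZMod r) := ⟨_, rfl⟩
  rw [← hi] at hev ⊢
  have hdiv : i ∣ finrank F ↥E := by
    obtain ⟨s, hs1, hs2⟩ := dvd_sing (0 : QuadraticForm F ↥E) g (fun v => rfl) hgr hfree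
    have hc : Nat.card {v : ↥E // (0 : QuadraticForm F ↥E) v = 0}
        = Fintype.card F ^ finrank F ↥E := by
      rw [Nat.card_congr (Equiv.subtypeUnivEquiv
          (p := fun v : ↥E => (0 : QuadraticForm F ↥E) v = 0) (fun v => rfl)),
        Module.natCard_eq_pow_finrank (K := F), Nat.card_eq_fintype_card]
    rw [hc] at hs1
    rw [hi, orderOf_dvd_iff_pow_eq_one]
    have h1 : ((Fintype.card F ^ finrank F ↥E : ℕ) : ZMod r) = 1 := by
      rw [hs1, Nat.cast_add, Nat.cast_one, (ZMod.natCast_eq_zero_iff s r).mpr hs2, add_zero]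
    rw [← h1, Nat.cast_pow]
  obtain ⟨K, hK⟩ := hdiv
  have hipos : 0 < i := by
    rcases Nat.eq_zero_or_pos i with h | h
    · rw [h, zero_mul] at hK
      omega
    · exact h
  have hK2 : 2 * (k + 1) = i * K := by rw [← hk, hK]
  have hdivK : finrank F ↥E / i = K := by
    rw [hK]
    exact Nat.mul_div_cancel_left K hipos
  rw [hdivK]
  have hcard : Nat.card {v : ↥E // Cfsg.quadFormOdd d F (v : I d → F) = 0}
      = Nat.card {v : ↥E // Q' v = 0} :=
    Nat.card_congr (Equiv.subtypeEquivRight (fun v => by rw [hQ'a]))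
  rw [hcard]
  exact obs_even Q' hS hk hr2 g hgO hgr hfree i hi hev K hK2

/-- singular vector count, in the ambient space -/
theorem sing_count {F : Type u} [Field F] [Fintype F] (d r : ℕ) [Fact r.Prime] (hr2 : r ≠ 2)
    (hev : Even (orderOf ((Fintype.card F : ℕ) : ZMod r)))
    (x : Matrix.GeneralLinearGroup (I d) F)
    (hx : x ∈ Cfsg.isometryGroup F (Cfsg.quadFormOdd d F)) (hxr : x ^ r = 1)
    (E : Submodule F (I d → F)) (hStab : Stab (x : Matrix (I d) (I d) F) E) (hND : NDeg d F E)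
    (hfix : E ⊓ Fx (x : Matrix (I d) (I d) F) = ⊥) (k : ℕ)
    (hk : finrank F ↥E = 2 * (k + 1)) :
    (Even (finrank F ↥E / orderOf ((Fintype.card F : ℕ) : ZMod r)) →
      Nat.card {v : I d → F // v ∈ E ∧ Cfsg.quadFormOdd d F v = 0} * Fintype.card F
        = Fintype.card F ^ (k + 1 + 1)
          + (Fintype.card F ^ (k + 1) - 1) * Fintype.card F ^ (k + 1)) ∧
    (¬ Even (finrank F ↥E / orderOf ((Fintype.card F : ℕ) : ZMod r)) →
      Nat.card {v : I d → F // v ∈ E ∧ Cfsg.quadFormOdd d F v = 0} * Fintype.card F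
        = Fintype.card F ^ (k + 1)
          + Fintype.card F ^ 2 * ((Fintype.card F ^ k - 1) * Fintype.card F ^ k)) := by
  have hcard : Nat.card {v : I d → F // v ∈ E ∧ Cfsg.quadFormOdd d F v = 0}
      = Nat.card {v : ↥E // Cfsg.quadFormOdd d F (v : I d → F) = 0} :=
    (Nat.card_congr (Equiv.subtypeSubtypeEquivSubtypeInter (fun v : I d → F => v ∈ E)
      (fun v => Cfsg.quadFormOdd d F v = 0))).symm
  rw [hcard]
  exact sing_count_sub d r hr2 hev x hx hxr E hStab hND hfix k hk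

end Cfsg.Agent.Lib.Helper38.TSSingCount
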